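import Mathlib
import Cfsg.Agent.Lib.Helper8.PG.Defs
import Cfsg.Agent.Lib.Helper40.PSpRP
import Cfsg.Agent.Lib.Helper14.Forms
import Cfsg.Agent.Lib.Helper61.OCls.Dual

/-!
# PG (S2474, helper8 project): package [FIXA] (helper24)

An isometry `t ≠ 1` of `quadFormOdd n` with `t ^ s = 1` and `n ≤ η(k)`: then `η(k) = n` and `1`
is a simple root of the characteristic polynomial.
-/

set_option autoImplicit false

namespace Cfsg.Agent.Lib.Helper24.PG

open Matrix Polynomial Cfsg.Agent.Lib.Helper8.PG Cfsg.Agent.Lib.Helper40.DualPoly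
  Cfsg.Agent.Lib.Helper40.SpExist Cfsg.Agent.Lib.Helper40.PrimeOrderGL
  Cfsg.Agent.Lib.Helper40.GUPrimeOrder Cfsg.Agent.Lib.Helper40.PSpRP

universe u

/-- a function invariant under a fixed-point-free involution has an even sum -/
theorem even_sum_of_involution {α : Type*} [Fintype α] (a : α → ℕ) (dg : α → α)
    (hdd : ∀ x, dg (dg x) = x) (hne : ∀ x, dg x ≠ x) (hinv : ∀ x, a (dg x) = a x) :
    Even (∑ x, a x) := by
  have h1 : ∑ x : α, ((a x : ℕ) : ZMod 2) = 0 := by
    apply Finset.sum_ninvolution dg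
    · intro x
      rw [hinv, ← Nat.cast_add, ← two_mul, Nat.cast_mul]
      have : ((2 : ℕ) : ZMod 2) = 0 := by decide
      rw [this, zero_mul]
    · intro x _
      exact hne x
    · intro x
      exact Finset.mem_univ _
    · exact hdd
  rw [← Nat.cast_sum, ZMod.natCast_eq_zero_iff] at h1
  exact (even_iff_two_dvd).mpr h1

/-- Package [FIXA]. -/
theorem pkgFixA : PkgFixA.{u} := by
  intro F _ _ hqodd p _ _ n s k ηk hs hs2 hsp hk hη t ht hts ht1 hnη
  classical
  have h2 : (2 : F) ≠ 0 := by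
    apply Ring.two_ne_zero
    intro h
    have hev := (FiniteField.even_card_iff_char_two).mp h
    rw [Nat.odd_iff] at hqodd
    omega
  obtain ⟨S, dg, hS, hSne, hsF, hk0, hdg, hdd, hfix⟩ := exists_sp_data p s k hs hs2 hsp hk
  have hcard : Fintype.card (OI n) = 2 * n + 1 := by
    simp only [OI, Fintype.card_sum, Fintype.card_unit, Fintype.card_fin]
    omega
  obtain ⟨a, ha, hχ⟩ := charpoly_eq_chi' hS t hts (2 * n + 1) hcard
  have ha0 : a ≠ 0 := by
    rintro rfl
    apply ht1
    apply eq_one_of_charpoly' t s hsF hts (2 * n + 1) hcard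
    rw [hχ]
    simp [chi]
  have hinv : ∀ π, a (dg π) = a π := by
    have h1 := Cfsg.Agent.Lib.Helper61.OCls.pkgDual (Cfsg.Agent.Lib.Helper14.oddQF n F)
      (Cfsg.Agent.Lib.Helper14.oddQF_nondegenerate n F h2) t
      (by intro v; rw [Cfsg.Agent.Lib.Helper14.oddQF_coe]; exact ht v)
    rw [hχ, dual_chi (RingHom.id F) dg hdd hdg] at h1
    have h3 := chi_inj hS _ _ _ _ h1
    intro π
    exact congrFun h3 π
  obtain ⟨π₀, hπ₀⟩ : ∃ π₀, a π₀ ≠ 0 := by
    by_contra hcon
    push Not at hcon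
    exact ha0 (funext hcon)
  have hsum1 : a π₀ ≤ ∑ π, a π :=
    Finset.single_le_sum (fun _ _ => Nat.zero_le _) (Finset.mem_univ π₀)
  obtain ⟨sa, hsa⟩ : ∃ m : ℕ, m = ∑ π, a π := ⟨_, rfl⟩
  rw [← hsa] at ha hχ hsum1
  have key : ηk = n ∧ 2 * n + 1 - k * sa = 1 := by
    rcases hη with ⟨hodd, hηeq⟩ | ⟨heven, hηeq⟩
    · have hne : ∀ π, dg π ≠ π := by
        intro π h
        exact (Nat.not_even_iff_odd.mpr hodd) ((hfix π).mp h)
      have hev : Even sa := by
        rw [hsa]
        exact even_sum_of_involution a dg hdd hne hinv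
      obtain ⟨c, hc⟩ := hev
      have hc1 : 1 ≤ c := by omega
      have hkn : k ≤ n := by
        have h3 : k * 2 ≤ k * sa := Nat.mul_le_mul_left k (by omega)
        omega
      have hkn' : k = n := by omega
      have hc2 : c < 2 := by
        by_contra hcon
        have h3 : k * 4 ≤ k * sa := Nat.mul_le_mul_left k (by omega)
        omega
      have hc3 : c = 1 := by omega
      have hprod : k * sa = k * 2 := by rw [hc, hc3]
      rw [hprod]
      omega
    · obtain ⟨c, hc⟩ := heven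
      have h3 : k * 1 ≤ k * sa := Nat.mul_le_mul_left k (by omega)
      have hk2 : k = 2 * n := by omega
      have hsa2 : sa < 2 := by
        by_contra hcon
        have h4 : k * 2 ≤ k * sa := Nat.mul_le_mul_left k (by omega)
        omega
      have hsa1 : sa = 1 := by omega
      have hprod : k * sa = k := by rw [hsa1, mul_one]
      rw [hprod]
      omega
  refine ⟨key.1, ?_⟩
  rw [hχ, key.2]
  unfold chi
  have hprod1 : (∏ π : S, π.1 ^ a π).eval 1 ≠ 0 := by
    rw [eval_prod]
    apply Finset.prod_ne_zero_iff.mpr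
    intro π _
    rw [eval_pow]
    exact pow_ne_zero _ (eval_one_ne hS π.1 π.2)
  have hprod0 : (∏ π : S, π.1 ^ a π) ≠ 0 := by
    intro h
    rw [h] at hprod1
    simp at hprod1
  have hne0 : (X - C 1 : F[X]) ^ 1 * ∏ π : S, π.1 ^ a π ≠ 0 :=
    mul_ne_zero (pow_ne_zero _ (X_sub_C_ne_zero 1)) hprod0
  rw [rootMultiplicity_mul hne0, rootMultiplicity_X_sub_C_pow,
    rootMultiplicity_eq_zero (by exact hprod1)]

end Cfsg.Agent.Lib.Helper24.PG
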